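import Cfsg.Agent.Lib.ToddCox.TIC2.Data
set_option autoImplicit false
set_option maxRecDepth 100000
namespace Cfsg.Agent.Lib.ToddCox.TIC2
theorem wordsGood : allBelow (wordsOK W (relR Rb inv) inv sp) nW 1 = true := by decide +kernel
theorem d0 : allBits (fun k => bif Nat.blt k 15 then chkDef Eo inv k else true) 13 0 = true := by decide +kernel
theorem s0 : chkStream Eo inv W isH 1 15 0xe00000600000280000100000060000020000008000000000001800001c00001600000f000009800005c000036000000 = true := by decide +kernel
theorem c0 : Covered Eo inv W isH 15 16 := covered_of_stream 1 15 _ s0
def M0 : List ℕ := [nat_lit 0xe800003400003c00000e00000d800003000003e00000f00000e000003c00003200000b00000d000003800002e00000a00000a800002400003000000d000009800002000002c00000c00000a000002c000022000007000009000002800001e0000060000068000014000020000009000005800001000001c000008000006000001c000012000003000005000001800000e0000020000028000004000010000005000001800000000000c000004000002000000c0000020000000000010000008000000000001]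
theorem l0 : chkPointChunks Eo cF (2 * nEv) N ys 16 M0 0 = true := by decide +kernel
theorem k0 : LinksOK Eo cF (2 * nEv) N ys 0 16 := linksOK_of_chunks 16 M0 0 16 rfl l0
end Cfsg.Agent.Lib.ToddCox.TIC2
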